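import Mathlib
import Cfsg.Prelude.Def_AxialAlgebras

/-!
Basic facts on Majorana pairs: eigenvector decomposition, fusion rules in equational form,
conjugation of pairs, the involution is determined by its axis, the bound on inner products.
-/

set_option autoImplicit false

namespace CfsgLib.Majorana
open Cfsg.Axial

variable {V : Type*} [AddCommGroup V] [Module ℝ V] {mul : V →ₗ[ℝ] V →ₗ[ℝ] V}
  {B : LinearMap.BilinForm ℝ V}

theorem mem_eigen {a v : V} {c : ℝ} : v ∈ eigen mul a c ↔ mul a v = c • v := by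
  unfold eigen
  exact Module.End.mem_eigenspace_iff

theorem eigenSum_insert (a : V) (c : ℝ) (S : Set ℝ) :
    eigenSum mul a (insert c S) = eigen mul a c ⊔ eigenSum mul a S := by
  unfold eigenSum
  exact iSup_insert

theorem eigenSum_single (a : V) (c : ℝ) : eigenSum mul a {c} = eigen mul a c := by
  unfold eigenSum
  exact iSup_singleton

theorem eigen_le_sum (a : V) {c : ℝ} {S : Set ℝ} (h : c ∈ S) : eigen mul a c ≤ eigenSum mul a S := by
  unfold eigenSum
  exact le_iSup₂_of_le c h le_rfl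

section Pair
variable {μ : V ≃ₗ[ℝ] V} {a : V}

theorem idem (h : IsMajoranaPair mul B μ a) : mul a a = a := h.2.2.1.1.2.1

theorem fix_of_eigen (h : IsMajoranaPair mul B μ a) {c : ℝ} (hc : c ∈ ({1, 0, 1 / 4} : Set ℝ))
    {v : V} (hv : mul a v = c • v) : μ v = v :=
  h.2.2.2.1 v (eigen_le_sum a hc (mem_eigen.2 hv))

theorem neg_of_eigen (h : IsMajoranaPair mul B μ a) {v : V} (hv : mul a v = (1 / 32 : ℝ) • v) :
    μ v = -v := h.2.2.2.2 v (mem_eigen.2 hv)

theorem fix_axis (h : IsMajoranaPair mul B μ a) : μ a = a :=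
  fix_of_eigen h (c := 1) (by simp) (by rw [idem h, one_smul])

theorem one_eigen (h : IsMajoranaPair mul B μ a) {v : V} (hv : v ∈ eigen mul a 1) :
    ∃ c : ℝ, v = c • a := by
  rw [h.2.2.1.2, Submodule.mem_span_singleton] at hv
  obtain ⟨c, hc⟩ := hv
  exact ⟨c, hc.symm⟩

theorem decomp (h : IsMajoranaPair mul B μ a) (v : V) :
    ∃ (c : ℝ) (x y z : V), v = c • a + x + y + z ∧ mul a x = 0 ∧ mul a y = (1 / 4 : ℝ) • y ∧
      mul a z = (1 / 32 : ℝ) • z := by
  have h1 : v ∈ eigenSum mul a majoranaSpectrum := by rw [h.2.2.1.1.2.2.1]; trivial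
  unfold majoranaSpectrum at h1
  rw [eigenSum_insert, eigenSum_insert, eigenSum_insert, eigenSum_single] at h1
  obtain ⟨w, hw, r, hr, rfl⟩ := Submodule.mem_sup.1 h1
  obtain ⟨x, hx, r', hr', rfl⟩ := Submodule.mem_sup.1 hr
  obtain ⟨y, hy, z, hz, rfl⟩ := Submodule.mem_sup.1 hr'
  obtain ⟨c, rfl⟩ := one_eigen h hw
  refine ⟨c, x, y, z, by abel, ?_, mem_eigen.1 hy, mem_eigen.1 hz⟩
  rw [mem_eigen.1 hx, zero_smul]

theorem apply_decomp (h : IsMajoranaPair mul B μ a) {c : ℝ} {x y z : V} (hx : mul a x = 0)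
    (hy : mul a y = (1 / 4 : ℝ) • y) (hz : mul a z = (1 / 32 : ℝ) • z) :
    μ (c • a + x + y + z) = c • a + x + y - z := by
  rw [map_add, map_add, map_add, map_smul, fix_axis h,
    fix_of_eigen h (c := 0) (v := x) (by simp) (by rw [hx, zero_smul]),
    fix_of_eigen h (c := 1 / 4) (v := y) (by simp) hy, neg_of_eigen h hz]
  abel

/-- The involution is determined by its axis. -/
theorem inv_eq_of_axis {ν : V ≃ₗ[ℝ] V} (h : IsMajoranaPair mul B μ a)
    (h' : IsMajoranaPair mul B ν a) : μ = ν := by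
  ext v
  obtain ⟨c, x, y, z, rfl, hx, hy, hz⟩ := decomp h v
  rw [apply_decomp h hx hy hz, apply_decomp h' hx hy hz]

theorem invol (h : IsMajoranaPair mul B μ a) (v : V) : μ (μ v) = v := by
  obtain ⟨c, x, y, z, rfl, hx, hy, hz⟩ := decomp h v
  rw [apply_decomp h hx hy hz, sub_eq_add_neg, apply_decomp h hx hy (z := -z) (by rw [map_neg, hz, smul_neg])]
  abel

theorem mul_self_eq (h : IsMajoranaPair mul B μ a) : μ * μ = 1 := by
  ext v
  exact invol h v

theorem fus00 (h : IsMajoranaPair mul B μ a) {x x' : V} (hx : mul a x = 0) (hx' : mul a x' = 0) :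
    mul a (mul x x') = 0 := by
  have := h.2.2.1.1.2.2.2 0 (by simp [majoranaSpectrum]) 0 (by simp [majoranaSpectrum]) x
    (mem_eigen.2 (by rw [hx, zero_smul])) x' (mem_eigen.2 (by rw [hx', zero_smul]))
  have e : monsterLaw (1 / 4 : ℝ) (1 / 32) 0 0 = {0} := by
    unfold monsterLaw; norm_num
  rw [e, eigenSum_single, mem_eigen, zero_smul] at this
  exact this

theorem fus04 (h : IsMajoranaPair mul B μ a) {x y : V} (hx : mul a x = 0)
    (hy : mul a y = (1 / 4 : ℝ) • y) : mul a (mul x y) = (1 / 4 : ℝ) • mul x y := by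
  have := h.2.2.1.1.2.2.2 0 (by simp [majoranaSpectrum]) (1 / 4) (by simp [majoranaSpectrum]) x
    (mem_eigen.2 (by rw [hx, zero_smul])) y (mem_eigen.2 hy)
  have e : monsterLaw (1 / 4 : ℝ) (1 / 32) 0 (1 / 4) = {1 / 4} := by
    unfold monsterLaw; norm_num
  rw [e, eigenSum_single, mem_eigen] at this
  exact this

theorem fus44 (h : IsMajoranaPair mul B μ a) {y y' : V} (hy : mul a y = (1 / 4 : ℝ) • y)
    (hy' : mul a y' = (1 / 4 : ℝ) • y') : ∃ c : ℝ, mul a (mul y y') = c • a ∧
      ∃ x, mul a x = 0 ∧ mul y y' = c • a + x := by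
  have := h.2.2.1.1.2.2.2 (1 / 4) (by simp [majoranaSpectrum]) (1 / 4) (by simp [majoranaSpectrum]) y
    (mem_eigen.2 hy) y' (mem_eigen.2 hy')
  have e : monsterLaw (1 / 4 : ℝ) (1 / 32) (1 / 4) (1 / 4) = {1, 0} := by
    unfold monsterLaw; norm_num
  rw [e, eigenSum_insert, eigenSum_single] at this
  obtain ⟨w, hw, x, hx, e⟩ := Submodule.mem_sup.1 this
  obtain ⟨c, rfl⟩ := one_eigen h hw
  have hx0 : mul a x = 0 := by rw [mem_eigen.1 hx, zero_smul]
  refine ⟨c, ?_, x, hx0, e.symm⟩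
  rw [← e, map_add, map_smul, idem h, hx0, add_zero]

theorem map_eigen (g : V ≃ₗ[ℝ] V) (hg : ∀ u v, g (mul u v) = mul (g u) (g v)) (a : V) (c : ℝ) :
    eigen mul (g a) c = (eigen mul a c).map (g : V →ₗ[ℝ] V) := by
  ext v
  constructor
  · intro hv
    refine ⟨g.symm v, mem_eigen.2 ?_, by simp⟩
    apply g.injective
    rw [hg, map_smul, g.apply_symm_apply, mem_eigen.1 hv]
  · rintro ⟨w, hw, rfl⟩
    apply mem_eigen.2
    have := mem_eigen.1 hw
    simp only [LinearEquiv.coe_coe]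
    rw [← hg, this, map_smul]

theorem map_eigenSum (g : V ≃ₗ[ℝ] V) (hg : ∀ u v, g (mul u v) = mul (g u) (g v)) (a : V)
    (S : Set ℝ) : eigenSum mul (g a) S = (eigenSum mul a S).map (g : V →ₗ[ℝ] V) := by
  unfold eigenSum
  simp only [Submodule.map_iSup, map_eigen g hg]

/-- Conjugating a Majorana pair by an automorphism. -/
theorem conj_pair (h : IsMajoranaPair mul B μ a) (g : V ≃ₗ[ℝ] V)
    (hg : ∀ u v, g (mul u v) = mul (g u) (g v)) (hB : ∀ u v, B (g u) (g v) = B u v) :
    IsMajoranaPair mul B (g * μ * g⁻¹) (g a) := by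
  have hg' : ∀ u v, g.symm (mul u v) = mul (g.symm u) (g.symm v) := by
    intro u v
    apply g.injective
    rw [hg]; simp
  have hB' : ∀ u v, B (g.symm u) (g.symm v) = B u v := by
    intro u v
    rw [← hB]; simp
  have happ : ∀ v, (g * μ * g⁻¹) v = g (μ (g.symm v)) := fun v => rfl
  refine ⟨fun u v => ?_, fun u v => ?_, ⟨⟨?_, ?_, ?_, ?_⟩, ?_⟩, ?_, ?_⟩
  · rw [happ, happ, happ, hg', h.1, hg]
  · rw [happ, happ, hB, h.2.1, hB']
  · intro e
    exact h.2.2.1.1.1 (g.injective (by rw [e, map_zero]))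
  · rw [← hg, idem h]
  · rw [map_eigenSum g hg, h.2.2.1.1.2.2.1, Submodule.map_top, LinearEquiv.range]
  · intro c hc d hd u hu v hv
    rw [map_eigen g hg] at hu hv
    obtain ⟨u, hu, rfl⟩ := hu
    obtain ⟨v, hv, rfl⟩ := hv
    rw [map_eigenSum g hg]
    exact ⟨mul u v, h.2.2.1.1.2.2.2 c hc d hd u hu v hv, hg u v⟩
  · rw [map_eigen g hg, h.2.2.1.2, Submodule.map_span, Set.image_singleton]; rfl
  · intro v hv
    rw [map_eigenSum g hg] at hv
    obtain ⟨v, hv, rfl⟩ := hv
    have := h.2.2.2.1 v hv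
    simp only [LinearEquiv.coe_coe] at this ⊢
    rw [happ, g.symm_apply_apply, this]
  · intro v hv
    rw [map_eigen g hg] at hv
    obtain ⟨v, hv, rfl⟩ := hv
    have := h.2.2.2.2 v hv
    simp only [LinearEquiv.coe_coe] at this ⊢
    rw [happ, g.symm_apply_apply, this, map_neg]

theorem orth_eigen (hV : IsMajoranaAmbient mul B) {a u v : V} {c d : ℝ} (hu : mul a u = c • u)
    (hv : mul a v = d • v) (hcd : c ≠ d) : B u v = 0 := by
  have h1 := hV.2.2.2.1 u a v
  rw [hv, hV.1 u a, hu, map_smul, map_smul, LinearMap.smul_apply, smul_eq_mul, smul_eq_mul] at h1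
  have : (c - d) * B u v = 0 := by linarith
  rcases mul_eq_zero.1 this with h | h
  · exact absurd (sub_eq_zero.1 h) hcd
  · exact h

theorem B_nonneg (hV : IsMajoranaAmbient mul B) (u : V) : 0 ≤ B u u := by
  by_cases h : u = 0
  · simp [h]
  · exact (hV.2.2.1 u h).le

/-- The `0`- and `1/4`-parts of a vector, and its odd part. -/
theorem parts (hV : IsMajoranaAmbient mul B) (h : IsMajoranaPair mul B μ a) (hn : B a a = 1) (v : V) :
    ∃ x y z : V, v = B a v • a + x + y + z ∧ μ v = B a v • a + x + y - z ∧ mul a x = 0 ∧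
      mul a y = (1 / 4 : ℝ) • y ∧ mul a z = (1 / 32 : ℝ) • z := by
  obtain ⟨c, x, y, z, e, hx, hy, hz⟩ := decomp h v
  have ha : mul a a = (1 : ℝ) • a := by rw [idem h, one_smul]
  have h1 : B a x = 0 := orth_eigen hV ha (d := 0) (by rw [hx, zero_smul]) (by norm_num)
  have h2 : B a y = 0 := orth_eigen hV ha hy (by norm_num)
  have h3 : B a z = 0 := orth_eigen hV ha hz (by norm_num)
  have hc : B a v = c := by
    rw [e]; simp [h1, h2, h3, hn]
  refine ⟨x, y, z, by rw [hc]; exact e, ?_, hx, hy, hz⟩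
  rw [hc, e, apply_decomp h hx hy hz]

/-- Inner products of an axis with an idempotent of length one. -/
theorem inner_bound (hV : IsMajoranaAmbient mul B) (h : IsMajoranaPair mul B μ a) (hn : B a a = 1)
    {b : V} (hb : mul b b = b) (hbn : B b b = 1) (hne : a ≠ b) : 0 ≤ B a b ∧ B a b ≤ 1 / 3 := by
  obtain ⟨x, y, z, e, -, hx, hy, hz⟩ := parts hV h hn b
  obtain ⟨l, hl⟩ : ∃ l, l = B a b := ⟨_, rfl⟩
  rw [← hl] at e ⊢
  have ha : mul a a = (1 : ℝ) • a := by rw [idem h, one_smul]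
  have hx' : mul a x = (0 : ℝ) • x := by rw [hx, zero_smul]
  have s := hV.2.1
  have h1 : B a x = 0 := orth_eigen hV ha hx' (by norm_num)
  have h2 : B a y = 0 := orth_eigen hV ha hy (by norm_num)
  have h3 : B a z = 0 := orth_eigen hV ha hz (by norm_num)
  have h4 : B x y = 0 := orth_eigen hV hx' hy (by norm_num)
  have h5 : B x z = 0 := orth_eigen hV hx' hz (by norm_num)
  have h6 : B y z = 0 := orth_eigen hV hy hz (by norm_num)
  have h1' := (s x a).trans h1
  have h2' := (s y a).trans h2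
  have h3' := (s z a).trans h3
  have h4' := (s y x).trans h4
  have h5' := (s z x).trans h5
  have h6' := (s z y).trans h6
  have e1 : B b b = l ^ 2 + B x x + B y y + B z z := by
    conv_lhs => rw [e]
    simp only [map_add, map_smul, LinearMap.add_apply, LinearMap.smul_apply, smul_eq_mul, hn, h1, h2,
      h3, h4, h5, h6, h1', h2', h3', h4', h5', h6']
    ring
  have e2 : mul a b = l • a + (1 / 4 : ℝ) • y + (1 / 32 : ℝ) • z := by
    conv_lhs => rw [e]
    simp only [map_add, map_smul, idem h, hx, hy, hz, add_zero]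
  have e3 : l = l ^ 2 + B y y / 4 + B z z / 32 := by
    have := hV.2.2.2.1 a b b
    rw [hb, e2, ← hl] at this
    conv at this => rhs; rw [e]
    simp only [map_add, map_smul, LinearMap.add_apply, LinearMap.smul_apply, smul_eq_mul, hn, h1, h2,
      h3, h2', h3', h4', h5', h6, h6'] at this
    linarith
  have p1 := B_nonneg hV x
  have p2 := B_nonneg hV y
  have p3 := B_nonneg hV z
  have p4 := hV.2.2.1 (a - b) (sub_ne_zero.2 hne)
  simp only [map_sub, LinearMap.sub_apply, hn, hbn, s b a, ← hl] at p4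
  constructor
  · nlinarith
  · nlinarith

end Pair

end CfsgLib.Majorana
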