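import Mathlib
import Cfsg.Agent.Lib.Majorana.Basic

/-!
The key identity for two Majorana axes: the square of `σ = a₀a₁ - (a₀ + a₁)/32` and the linear
relation among six axes of the dihedral orbit.
-/

set_option autoImplicit false

namespace CfsgLib.Majorana
open Cfsg.Axial

variable {V : Type*} [AddCommGroup V] [Module ℝ V] {mul : V →ₗ[ℝ] V →ₗ[ℝ] V}
  {B : LinearMap.BilinForm ℝ V}

theorem core_alg (hc : ∀ u v, mul u v = mul v u) {a x y p s q o e : V} {l c : ℝ}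
    (haa : mul a a = a) (hx : mul a x = 0) (hy : mul a y = (1 / 4 : ℝ) • y)
    (hxx : mul a (mul x x) = 0) (hxy : mul a (mul x y) = (1 / 4 : ℝ) • mul x y)
    (hyy : mul a (mul y y) = c • a)
    (hp : p = (2 * l) • a + (2 : ℝ) • x + (2 : ℝ) • y)
    (hs : s = (31 / 32 * l - 1 / 32) • a - (1 / 32 : ℝ) • x + (7 / 32 : ℝ) • y)
    (hq : mul p s = (7 / 16 : ℝ) • s + (3 / 4 * l - 25 / 1024) • p + (7 / 2048 : ℝ) • ((2 : ℝ) • a + q))
    (ho : mul p p = (17 / 16 : ℝ) • p + (2 : ℝ) • o)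
    (he : mul a q = (2 : ℝ) • e + (1 / 16 : ℝ) • a + (1 / 32 : ℝ) • q) :
    mul s s = (49 / 196608 : ℝ) • q - (7 / 1536 : ℝ) • e + (7 / 2048 : ℝ) • o
      + (147 / 32768 + 7 / 24 * c - 119 / 384 * l + 35 / 24 * l ^ 2) • a
      + (-245 / 196608 + 49 / 768 * l) • p + (-13 / 1536 - 5 / 12 * l) • s := by
  have hxa : mul x a = 0 := by rw [hc, hx]
  have hya : mul y a = (1 / 4 : ℝ) • y := by rw [hc, hy]
  have hyx : mul y x = mul x y := hc _ _
  have hq' : q = (2048 / 7 : ℝ) • (mul p s - (7 / 16 : ℝ) • s - (3 / 4 * l - 25 / 1024) • p)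
      - (2 : ℝ) • a := by
    rw [hq]; module
  have ho' : o = (1 / 2 : ℝ) • (mul p p - (17 / 16 : ℝ) • p) := by
    rw [ho]; module
  have he' : e = (1 / 2 : ℝ) • (mul a q - (1 / 16 : ℝ) • a - (1 / 32 : ℝ) • q) := by
    rw [he]; module
  rw [he', ho', hq', hp, hs]
  simp only [map_add, map_sub, map_smul, LinearMap.add_apply, LinearMap.sub_apply,
    LinearMap.smul_apply, haa, hx, hy, hxx, hxy, hyy, hxa, hya, hyx, map_zero]
  module

/-- `σ(a, v) = a v - (a + v)/32`. -/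
noncomputable def sig (mul : V →ₗ[ℝ] V →ₗ[ℝ] V) (a v : V) : V := mul a v - (1 / 32 : ℝ) • (a + v)

theorem sig_comm (hc : ∀ u v, mul u v = mul v u) (a v : V) : sig mul a v = sig mul v a := by
  unfold sig; rw [hc, add_comm]

theorem map_sig (g : V ≃ₗ[ℝ] V) (hg : ∀ u v, g (mul u v) = mul (g u) (g v)) (a v : V) :
    g (sig mul a v) = sig mul (g a) (g v) := by
  unfold sig; rw [map_sub, map_smul, map_add, hg]

section
variable {μ : V ≃ₗ[ℝ] V} {a : V}

theorem sig_fix (hV : IsMajoranaAmbient mul B) (h : IsMajoranaPair mul B μ a) (hn : B a a = 1)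
    (v : V) : sig mul a (μ v) = sig mul a v := by
  obtain ⟨x, y, z, e, e', hx, hy, hz⟩ := parts hV h hn v
  generalize B a v = l at e e'
  unfold sig
  rw [e', e]
  simp only [map_add, map_sub, map_smul, idem h, hx, hy, hz]
  module

theorem sig_fix' (hV : IsMajoranaAmbient mul B) (h : IsMajoranaPair mul B μ a) (hn : B a a = 1)
    (v : V) : μ (sig mul a v) = sig mul a v := by
  rw [map_sig μ h.1, fix_axis h, sig_fix hV h hn]

theorem mul_sig (hV : IsMajoranaAmbient mul B) (h : IsMajoranaPair mul B μ a) (hn : B a a = 1)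
    (v : V) : mul a (sig mul a v) = (7 / 32 : ℝ) • sig mul a v + (3 / 4 * B a v - 25 / 1024) • a
      + (7 / 2048 : ℝ) • (v + μ v) := by
  obtain ⟨x, y, z, e, e', hx, hy, hz⟩ := parts hV h hn v
  generalize B a v = l at e e'
  unfold sig
  rw [e', e]
  simp only [map_add, map_sub, map_smul, idem h, hx, hy, hz, map_zero]
  module

variable {ν : V ≃ₗ[ℝ] V} {b : V}

/-- The square of `σ(a, b)`. -/
theorem sig_sq (hV : IsMajoranaAmbient mul B) (h : IsMajoranaPair mul B μ a) (hn : B a a = 1)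
    (h' : IsMajoranaPair mul B ν b) (hn' : B b b = 1) :
    ∃ C D G : ℝ, mul (sig mul a b) (sig mul a b) = (49 / 196608 : ℝ) • (ν a + μ (ν a))
      - (7 / 1536 : ℝ) • sig mul a (ν a) + (7 / 2048 : ℝ) • sig mul b (μ b)
      + C • a + D • (b + μ b) + G • sig mul a b := by
  have hc := hV.1
  obtain ⟨x, y, z, e, e', hx, hy, hz⟩ := parts hV h hn b
  obtain ⟨c, hyy, -⟩ := fus44 h hy hy
  have hb := mul_sig hV h' hn' a
  rw [sig_comm hc b a, hV.2.1 b a] at hb
  have hb' := congrArg μ hb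
  rw [h.1, sig_fix' hV h hn] at hb'
  simp only [map_add, map_smul, sig_fix' hV h hn, fix_axis h] at hb'
  have hbb : mul b b = b := idem h'
  have hbb' : mul (μ b) (μ b) = μ b := by rw [← h.1, hbb]
  refine ⟨_, _, _, core_alg hc (l := B a b) (idem h) hx hy (fus00 h hx hx) (fus04 h hx hy) hyy
    ?_ ?_ ?_ ?_ ?_⟩
  · generalize B a b = l at e e'
    rw [e', e]; module
  · generalize B a b = l at e e'
    unfold sig
    rw [e]
    simp only [map_add, map_smul, idem h, hx, hy, hz]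
    module
  · rw [map_add, LinearMap.add_apply, hb, hb']
    module
  · unfold sig
    simp only [map_add, LinearMap.add_apply, hbb, hbb', hc (μ b) b]
    module
  · have h1 := sig_fix hV h hn (ν a)
    rw [map_add]
    have h2 : mul a (μ (ν a)) = sig mul a (ν a) + (1 / 32 : ℝ) • (a + μ (ν a)) := by
      rw [← h1]; unfold sig; module
    rw [h2]
    unfold sig
    module

/-- The linear relation among six axes. -/
theorem six_rel (hV : IsMajoranaAmbient mul B) (h : IsMajoranaPair mul B μ a) (hn : B a a = 1)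
    (h' : IsMajoranaPair mul B ν b) (hn' : B b b = 1) :
    ∃ s t : ℝ, (ν (μ (ν a)) - μ (ν a)) + s • (ν (μ b) - μ b) + t • (ν a - a) = 0 := by
  have hc := hV.1
  obtain ⟨C, D, G, e⟩ := sig_sq hV h hn h' hn'
  have f1 : ν (sig mul a b) = sig mul a b := by
    rw [sig_comm hc a b, sig_fix' hV h' hn']
  have f2 : ν (sig mul a (ν a)) = sig mul a (ν a) := by
    rw [map_sig ν h'.1, invol h', sig_comm hc]
  have f3 : ν (sig mul b (μ b)) = sig mul b (μ b) := sig_fix' hV h' hn' _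
  have e' := congrArg ν e
  rw [h'.1, f1, e] at e'
  simp only [map_add, map_sub, map_smul, f1, f2, f3, invol h', fix_axis h'] at e'
  refine ⟨196608 / 49 * D, 196608 / 49 * C - 1, ?_⟩
  linear_combination (norm := module) (-196608 / 49 : ℝ) • e'

end

theorem aff1 {A P g : ℝ} (h : 0 ≤ g) (h' : g ≤ 1 / 3) (h0 : 0 < A) (h1 : 0 < A + P / 3) :
    0 < A + g * P := by
  rcases le_total 0 P with hp | hp
  · have := mul_nonneg h hp; linarith
  · have := mul_le_mul_of_nonpos_right h' hp; linarith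

theorem aff2 {A P Q g k : ℝ} (h : 0 ≤ g) (h' : g ≤ 1 / 3) (hk : 0 ≤ k) (hk' : k ≤ 1 / 3)
    (h0 : 0 < A) (h1 : 0 < A + P / 3) (h2 : 0 < A + Q / 3) (h3 : 0 < A + P / 3 + Q / 3) :
    0 < A + g * P + k * Q := by
  apply aff1 hk hk' (aff1 h h' h0 h1)
  have := aff1 (A := A + Q / 3) (P := P) h h' h2 (by linarith)
  linarith

theorem gram_contra {s t g1 g2 g3 g4 g4' g5 g6 : ℝ} (h1 : 0 ≤ g1) (h1' : g1 ≤ 1 / 3)
    (h2 : 0 ≤ g2) (h2' : g2 ≤ 1 / 3) (h3 : 0 ≤ g3) (h3' : g3 ≤ 1 / 3)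
    (h4 : 0 ≤ g4) (h4' : g4 ≤ 1 / 3) (h7' : g4' ≤ 1 / 3)
    (h5 : 0 ≤ g5) (h5' : g5 ≤ 1 / 3) (h6' : g6 ≤ 1 / 3)
    (e1 : 1 - g6 + s * (g1 - g5) + t * (g2 - g4) = 0)
    (e2 : (g1 - g5) + s * (1 - g4') + t * (g1 - g3) = 0)
    (e3 : (g2 - g4) + s * (g1 - g3) + t * (1 - g2) = 0) : False := by
  have q : 1 - g6 + s ^ 2 * (1 - g4') + t ^ 2 * (1 - g2) + 2 * s * (g1 - g5) + 2 * t * (g2 - g4)
      + 2 * (s * t) * (g1 - g3) = 0 := by linear_combination e1 + s * e2 + t * e3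
  have k0 : s ^ 2 * g4' ≤ s ^ 2 * (1 / 3) := mul_le_mul_of_nonneg_left h7' (sq_nonneg s)
  have p1 := sq_nonneg (1 - s)
  have p2 := sq_nonneg (1 - t)
  have p3 := sq_nonneg (s - t)
  have p4 := sq_nonneg (1 + s)
  have p5 := sq_nonneg (1 + t)
  have p6 := sq_nonneg (s + t)
  have p7 := sq_nonneg (1 - 2 * t)
  have p8 := sq_nonneg s
  have p10 := sq_nonneg (1 - 2 * s)
  have p11 := sq_nonneg (1 + 2 * s)
  have p12 := sq_nonneg (1 + 2 * t)
  have p9 := sq_nonneg t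
  rcases le_total 0 s with hs | hs <;> rcases le_total 0 t with ht | ht
  · have k1 := mul_le_mul_of_nonneg_left h5' hs
    have k2 := mul_le_mul_of_nonneg_left h4' ht
    have k3 := mul_le_mul_of_nonneg_left h3' (mul_nonneg hs ht)
    have hst := mul_nonneg hs ht
    have := aff2 (A := 2 / 3 + 2 / 3 * s ^ 2 + t ^ 2 - 2 / 3 * s - 2 / 3 * t - 2 / 3 * (s * t))
      (P := 2 * s + 2 * (s * t)) (Q := 2 * t - t ^ 2) h1 h1' h2 h2'
      (by linarith) (by linarith) (by linarith) (by linarith)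
    linarith
  · have k1 := mul_le_mul_of_nonneg_left h5' hs
    have k2 := mul_nonpos_of_nonpos_of_nonneg ht h4
    have hst := mul_nonpos_of_nonneg_of_nonpos hs ht
    have k3 := mul_nonpos_of_nonpos_of_nonneg hst h3
    have := aff2 (A := 2 / 3 + 2 / 3 * s ^ 2 + t ^ 2 - 2 / 3 * s)
      (P := 2 * s + 2 * (s * t)) (Q := 2 * t - t ^ 2) h1 h1' h2 h2'
      (by linarith) (by linarith) (by linarith) (by linarith)
    linarith
  · have k1 := mul_nonpos_of_nonpos_of_nonneg hs h5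
    have k2 := mul_le_mul_of_nonneg_left h4' ht
    have hst := mul_nonpos_of_nonpos_of_nonneg hs ht
    have k3 := mul_nonpos_of_nonpos_of_nonneg hst h3
    have := aff2 (A := 2 / 3 + 2 / 3 * s ^ 2 + t ^ 2 - 2 / 3 * t)
      (P := 2 * s + 2 * (s * t)) (Q := 2 * t - t ^ 2) h1 h1' h2 h2'
      (by linarith) (by linarith) (by linarith) (by linarith)
    linarith
  · have k1 := mul_nonpos_of_nonpos_of_nonneg hs h5
    have k2 := mul_nonpos_of_nonpos_of_nonneg ht h4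
    have hst := mul_nonneg_of_nonpos_of_nonpos hs ht
    have k3 := mul_le_mul_of_nonneg_left h3' hst
    have := aff2 (A := 2 / 3 + 2 / 3 * s ^ 2 + t ^ 2 - 2 / 3 * (s * t))
      (P := 2 * s + 2 * (s * t)) (Q := 2 * t - t ^ 2) h1 h1' h2 h2'
      (by linarith) (by linarith) (by linarith) (by linarith)
    linarith

theorem pow_of_eq {G : Type*} [Group G] {m r : G} {i j : ℤ} (h : m * r ^ i = m * r ^ j)
    (h1 : j < i) (h2 : i ≤ j + 6) : ∃ n : ℕ, 1 ≤ n ∧ n ≤ 6 ∧ r ^ n = 1 := by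
  refine ⟨(i - j).toNat, by omega, by omega, ?_⟩
  rw [← zpow_natCast, Int.toNat_of_nonneg (by omega), zpow_sub, mul_left_cancel h, mul_inv_cancel]

/-- Sakuma's theorem: the product of two Majorana involutions has order at most six. -/
theorem sakuma {μ ν : V ≃ₗ[ℝ] V} {a b : V} (hV : IsMajoranaAmbient mul B)
    (h : IsMajoranaPair mul B μ a) (hn : B a a = 1) (h' : IsMajoranaPair mul B ν b)
    (hn' : B b b = 1) : ∃ n : ℕ, 1 ≤ n ∧ n ≤ 6 ∧ (μ * ν) ^ n = 1 := by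
  by_contra hcon
  have hμ := mul_self_eq h
  have hν := mul_self_eq h'
  have hμi : μ⁻¹ = μ := inv_eq_of_mul_eq_one_right hμ
  have hνi : ν⁻¹ = ν := inv_eq_of_mul_eq_one_right hν
  have hμ' : ∀ g, μ * (μ * g) = g := fun g => by rw [← mul_assoc, hμ, one_mul]
  have hν' : ∀ g, ν * (ν * g) = g := fun g => by rw [← mul_assoc, hν, one_mul]
  -- axes with their indices
  have key : ∀ {u v : V} (i j : ℤ), IsMajoranaPair mul B (μ * (μ * ν) ^ i) u →
      IsMajoranaPair mul B (μ * (μ * ν) ^ j) v → B u u = 1 → B v v = 1 → j < i → i ≤ j + 6 →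
      0 ≤ B u v ∧ B u v ≤ 1 / 3 := by
    intro u v i j hu hv hun hvn h1 h2
    refine inner_bound hV hu hun (idem hv) hvn ?_
    rintro rfl
    exact hcon (pow_of_eq (inv_eq_of_axis hu hv) h1 h2)
  have c0 : IsMajoranaPair mul B (μ * (μ * ν) ^ (0 : ℤ)) a := by simpa using h
  have c1 : IsMajoranaPair mul B (μ * (μ * ν) ^ (1 : ℤ)) b := by
    rw [zpow_one, hμ']; exact h'
  have d2 := conj_pair h ν h'.1 h'.2.1
  have c2 : IsMajoranaPair mul B (μ * (μ * ν) ^ (2 : ℤ)) (ν a) := by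
    convert d2 using 1
    rw [zpow_ofNat]; simp only [pow_succ, pow_zero, one_mul, mul_assoc, hμ', hνi]
  have dm1 := conj_pair h' μ h.1 h.2.1
  have cm1 : IsMajoranaPair mul B (μ * (μ * ν) ^ (-1 : ℤ)) (μ b) := by
    convert dm1 using 1
    rw [zpow_neg, zpow_one]; simp only [mul_inv_rev, mul_assoc, hμi, hνi]
  have dm2 := conj_pair d2 μ h.1 h.2.1
  have cm2 : IsMajoranaPair mul B (μ * (μ * ν) ^ (-2 : ℤ)) (μ (ν a)) := by
    convert dm2 using 1
    rw [zpow_neg, zpow_ofNat]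
    simp only [pow_succ, pow_zero, one_mul, mul_inv_rev, mul_assoc, hμi, hνi]
  have d3 := conj_pair dm1 ν h'.1 h'.2.1
  have c3 : IsMajoranaPair mul B (μ * (μ * ν) ^ (3 : ℤ)) (ν (μ b)) := by
    convert d3 using 1
    rw [zpow_ofNat]; simp only [pow_succ, pow_zero, one_mul, mul_assoc, hμ', hνi, hμi]
  have d4 := conj_pair dm2 ν h'.1 h'.2.1
  have c4 : IsMajoranaPair mul B (μ * (μ * ν) ^ (4 : ℤ)) (ν (μ (ν a))) := by
    convert d4 using 1
    rw [zpow_ofNat]; simp only [pow_succ, pow_zero, one_mul, mul_assoc, hμ', hνi, hμi]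
  have Bμ := h.2.1
  have Bν := h'.2.1
  have sy := hV.2.1
  have n2 : B (ν a) (ν a) = 1 := by rw [Bν, hn]
  have nm1 : B (μ b) (μ b) = 1 := by rw [Bμ, hn']
  have nm2 : B (μ (ν a)) (μ (ν a)) = 1 := by rw [Bμ, n2]
  have n3 : B (ν (μ b)) (ν (μ b)) = 1 := by rw [Bν, nm1]
  have n4 : B (ν (μ (ν a))) (ν (μ (ν a))) = 1 := by rw [Bν, nm2]
  obtain ⟨s, t, e⟩ := six_rel hV h hn h' hn'
  have g1 := key 1 0 c1 c0 hn' hn (by norm_num) (by norm_num)
  have g2 := key 2 0 c2 c0 n2 hn (by norm_num) (by norm_num)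
  have g3 := key 3 0 c3 c0 n3 hn (by norm_num) (by norm_num)
  have g4 := key 4 0 c4 c0 n4 hn (by norm_num) (by norm_num)
  have g4' := key 3 (-1) c3 cm1 n3 nm1 (by norm_num) (by norm_num)
  have g5 := key 4 (-1) c4 cm1 n4 nm1 (by norm_num) (by norm_num)
  have g6 := key 4 (-2) c4 cm2 n4 nm2 (by norm_num) (by norm_num)
  have r1 : B (ν (μ (ν a))) (ν (μ b)) = B b a := by
    rw [Bν, Bμ, ← Bν, invol h', fix_axis h', sy]
  have r2 : B (ν (μ b)) (ν a) = B b a := by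
    rw [Bν, ← Bμ, invol h, fix_axis h]
  have r3 : B (ν (μ (ν a))) (ν a) = B (ν a) a := by
    rw [Bν, ← Bμ, invol h, fix_axis h]
  have r4 : B (ν (μ b)) (μ (ν a)) = B (ν (μ (ν a))) (μ b) := by
    rw [← Bν, invol h', sy]
  have r5 : B (ν a) (μ (ν a)) = B (ν (μ (ν a))) a := by
    rw [← Bν, invol h', sy]
  have r6 : B (ν a) (μ b) = B (ν (μ b)) a := by
    rw [← Bν, invol h', sy]
  have e1 := congrArg (B (ν (μ (ν a)))) e
  have e2 := congrArg (B (ν (μ b))) e
  have e3 := congrArg (B (ν a)) e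
  simp only [map_add, map_sub, map_smul, smul_eq_mul, map_zero] at e1 e2 e3
  rw [n4, r1, r3] at e1
  rw [sy (ν (μ b)) (ν (μ (ν a))), r1, r4, n3, r2] at e2
  rw [sy (ν a) (ν (μ (ν a))), r3, r5, sy (ν a) (ν (μ b)), r2, r6, n2] at e3
  exact gram_contra g1.1 g1.2 g2.1 g2.2 g3.1 g3.2 g4.1 g4.2 g4'.2 g5.1 g5.2 g6.2 e1 e2 e3

end CfsgLib.Majorana
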